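import Cfsg.Agent.CITThreePrime.Basic
import Cfsg.Agent.SL2.Sylow

/-!
A group with 2-group involution centralisers and a normal `SL₂(2ⁿ)`, `n ≥ 3`, with trivial centraliser
is that subgroup.
-/

set_option autoImplicit false

namespace CfsgLib.PrimeGraphPSLTwo

open CfsgLib.CITThreePrime CfsgLib.SL2

variable {F : Type*} [Field F] [Fintype F] [CharP F 2]
variable {G : Type*} [Group G] [Finite G]

local notation "SL₂" => Matrix.SpecialLinearGroup (Fin 2) F

omit [Fintype F] in
theorem mem_U_of_commute {g : SL₂} (h10 : g 1 0 = 0) (hc : Commute g (u 1)) :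
    g ∈ (U : Subgroup SL₂) := by
  have h := congrArg (fun x : SL₂ => x 0 1) hc.eq
  simp [Matrix.mul_apply, Fin.sum_univ_two] at h
  have hdet := det_eq g
  rw [h10, mul_zero, sub_zero] at hdet
  have hdd : g 0 0 = g 1 1 := by linear_combination h
  rw [← hdd] at hdet
  have h00 : g 0 0 = 1 := by
    rcases mul_self_eq_one_iff.1 hdet with h1 | h1
    · exact h1
    · rw [h1, CharTwo.neg_eq]
  exact mem_U_iff_entries.2 ⟨h00, h10, hdd ▸ h00⟩

omit [Fintype F] in
theorem add_inv_ne_zero {a : Fˣ} (ha : a ≠ 1) : ((a⁻¹ : Fˣ) : F) + a ≠ 0 := by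
  intro h
  apply ha
  have h1 : ((a⁻¹ : Fˣ) : F) = a := CharTwo.add_eq_zero.1 h
  have h2 : (a : F) * a = 1 := by
    nth_rw 2 [← h1]
    exact a.mul_inv
  rcases mul_self_eq_one_iff.1 h2 with h3 | h3
  · exact Units.ext h3
  · exact Units.ext (by rw [h3, CharTwo.neg_eq]; rfl)

/-- An element of `B` of order prime to two is conjugate under `U` into `T`. -/
theorem exists_conj_T {g : SL₂} (hg : g ∈ (B : Subgroup SL₂)) (h2 : g * g ≠ 1) :
    ∃ (c : F) (a : Fˣ), (u c)⁻¹ * g * u c = d a := by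
  obtain ⟨t, a, rfl⟩ := eq_u_mul_d hg
  have ha : a ≠ 1 := by
    rintro rfl
    apply h2
    rw [map_one, mul_one, ← u_add, CharTwo.add_self_eq_zero, u_zero]
  have hne := add_inv_ne_zero ha
  have hd := d_conj_u a
  have ha2 : (1 : F) + (a : F) ^ 2 ≠ 0 := by
    intro h
    apply hne
    have : (a : F) * (((a⁻¹ : Fˣ) : F) + a) = 0 := by
      rw [mul_add, a.mul_inv, ← sq]; exact h
    exact (mul_eq_zero.1 this).resolve_left a.ne_zero
  refine ⟨t / (1 + (a : F) ^ 2), a, ?_⟩
  set c := t / (1 + (a : F) ^ 2) with hc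
  have h1 : d a * u c = u ((a : F) ^ 2 * c) * d a := by rw [← hd c]; group
  rw [← u_neg, mul_assoc, mul_assoc (u t), h1, ← mul_assoc, ← mul_assoc, ← u_add, ← u_add,
    show -c + t + (a : F) ^ 2 * c = 0 by
      rw [CharTwo.neg_eq]
      have : c * (1 + (a : F) ^ 2) = t := div_mul_cancel₀ t ha2
      linear_combination this + t * (CharTwo.two_eq_zero : (2 : F) = 0), u_zero, one_mul]

omit [Fintype F] in
theorem eq_of_u_conj_d {t : F} {a : Fˣ} (ha : a ≠ 1)
    (h : u t * d a * (u t)⁻¹ ∈ (T : Subgroup SL₂)) : t = 0 := by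
  have h1 := (mem_T.1 h).1
  rw [← u_neg] at h1
  simp [Matrix.mul_apply, Fin.sum_univ_two] at h1
  have hne := add_inv_ne_zero ha
  have h2 : t * (((a⁻¹ : Fˣ) : F) + a) = 0 := by
    rw [mul_add, CharTwo.add_eq_zero]
    push_cast
    linear_combination h1
  exact (mul_eq_zero.1 h2).resolve_right hne

/-- A group with a normal `SL₂(2ⁿ)` and 2-group involution centralisers. -/
theorem eq_top_of_sl_two (hcit : InvCentTwo G) (N : Subgroup G) [N.Normal]
    (e : N ≃* SL₂) (hF : 8 ≤ Fintype.card F) : N = ⊤ := by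
  classical
  haveI : Fact (Nat.Prime 2) := ⟨Nat.prime_two⟩
  set ι : SL₂ →* G := N.subtype.comp e.symm.toMonoidHom with hι
  have hinj : Function.Injective ι := Subtype.val_injective.comp e.symm.injective
  have hιN : ∀ x, ι x ∈ N := fun x => (e.symm x).2
  have hNι : ∀ y ∈ N, ∃ x, ι x = y := fun y hy => ⟨e ⟨y, hy⟩, by simp [hι]⟩
  have hconj : ∀ (g : G) (x : SL₂), ∃ x', ι x' = g * ι x * g⁻¹ := fun g x =>
    hNι _ (Subgroup.Normal.conj_mem inferInstance _ (hιN x) g)
  set S := (U : Subgroup SL₂).map ι with hS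
  have hz : orderOf (ι (u 1)) = 2 := by
    rw [orderOf_injective ι hinj, orderOf_u (p := 2) one_ne_zero]
  have hC := hcit _ hz
  have hSmem : ∀ {g : G}, g ∈ Subgroup.normalizer (S : Set G) → ∀ t : F,
      ∃ t', g * ι (u t) * g⁻¹ = ι (u t') := by
    intro g hg t
    have h1 := (Subgroup.mem_normalizer_iff.1 hg (ι (u t))).1 ⟨u t, u_mem_U t, rfl⟩
    obtain ⟨x, hx, hxe⟩ := h1
    obtain ⟨t', rfl⟩ := mem_U.1 hx
    exact ⟨t', hxe.symm⟩
  have hdN : ∀ a : Fˣ, ι (d a) ∈ Subgroup.normalizer (S : Set G) := fun a => by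
    rw [Subgroup.mem_normalizer_iff_map_conj_eq, hS, Subgroup.map_map,
      show ((MulAut.conj (ι (d a)) : MulAut G) : G →* G).comp ι =
        ι.comp ((MulAut.conj (d a) : MulAut SL₂) : SL₂ →* SL₂) from
        MonoidHom.ext fun x => by simp, ← Subgroup.map_map,
      (Subgroup.mem_normalizer_iff_map_conj_eq).1 (B_le_normalizer_U (T_le_B (d_mem_T a)))]
  -- the Sylow 2-subgroup `S` of `N`
  let P : Sylow 2 N := (uSylow 2).comapOfInjective e.toMonoidHom e.injective fun x _ => ⟨e.symm x, by simp⟩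
  have hPS : (P : Subgroup N).map N.subtype = S := by
    ext y
    constructor
    · rintro ⟨n, hn, rfl⟩
      exact ⟨e n, hn, by simp [hι]⟩
    · rintro ⟨x, hx, rfl⟩
      exact ⟨e.symm x, by show e (e.symm x) ∈ (U : Subgroup SL₂); simpa using hx, by simp [hι]⟩
  have hfr := Sylow.normalizer_sup_eq_top P
  rw [hPS] at hfr
  -- it suffices to treat elements fixing `u 1`
  suffices hW : ∀ y ∈ Subgroup.normalizer (S : Set G),
      y ∈ Subgroup.centralizer ({ι (u 1)} : Set G) → y ∈ N by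
    rw [eq_top_iff, ← hfr, sup_le_iff]
    refine ⟨fun g hg => ?_, le_rfl⟩
    obtain ⟨t, ht⟩ := hSmem hg 1
    have ht0 : t ≠ 0 := by
      rintro rfl
      rw [u_zero, map_one] at ht
      have h1 : ι (u 1) = 1 := conj_eq_one_iff.1 ht
      rw [h1, orderOf_one] at hz
      omega
    obtain ⟨b, hb⟩ := (Finite.injective_iff_bijective.1 (frobenius_inj F 2)).2 t
    rw [frobenius_def] at hb
    have hb0 : b ≠ 0 := fun h0 => ht0 (by rw [← hb, h0]; simp)
    set a := Units.mk0 b hb0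
    have hda : ι (d a) * ι (u 1) * (ι (d a))⁻¹ = ι (u t) := by
      rw [← map_mul, ← map_inv, ← map_mul, d_conj_u, mul_one, Units.val_mk0, hb]
    have hy := hW ((ι (d a))⁻¹ * g) (mul_mem (inv_mem (hdN a)) hg)
      (Subgroup.mem_centralizer_singleton_iff.2 (by
        calc (ι (d a))⁻¹ * g * ι (u 1)
            = (ι (d a))⁻¹ * (g * ι (u 1) * g⁻¹) * g := by group
          _ = (ι (d a))⁻¹ * (ι (d a) * ι (u 1) * (ι (d a))⁻¹) * g := by rw [ht, hda]
          _ = _ := by group))
    simpa using mul_mem (hιN (d a)) hy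
  intro y₀ hy₀S hy₀C
  by_contra hy₀
  obtain ⟨k, hk⟩ := exists_two_pow_of_mem hC hy₀C
  have hex : ∃ i, y₀ ^ 2 ^ i ∈ N := ⟨k, by rw [← hk, pow_orderOf_eq_one]; exact one_mem _⟩
  obtain ⟨i, hi⟩ := Nat.exists_eq_succ_of_ne_zero
    (show Nat.find hex ≠ 0 from fun e0 => hy₀ (by simpa [e0] using Nat.find_spec hex))
  set y := y₀ ^ 2 ^ i with hy
  have hyN : y ∉ N := Nat.find_min hex (by omega)
  have hy2 : y ^ 2 ∈ N := by
    rw [hy, ← pow_mul, ← pow_succ, ← Nat.succ_eq_add_one, ← hi]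
    exact Nat.find_spec hex
  have hyS : y ∈ Subgroup.normalizer (S : Set G) := pow_mem hy₀S _
  have hyC : y ∈ Subgroup.centralizer ({ι (u 1)} : Set G) := pow_mem hy₀C _
  -- move a torus generator back into the torus
  obtain ⟨a₀, ha₀⟩ := IsCyclic.exists_generator (α := Fˣ)
  have ha₀o : orderOf a₀ = Fintype.card F - 1 := by
    rw [orderOf_eq_card_of_forall_mem_zpowers ha₀, Nat.card_eq_fintype_card, Fintype.card_units]
  have hodd : Odd (Fintype.card F - 1) := by
    obtain ⟨n, -, hn⟩ := FiniteField.card F 2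
    exact Nat.Even.sub_odd Fintype.card_pos (hn ▸ Nat.even_pow.2 ⟨even_two, n.pos.ne'⟩) odd_one
  obtain ⟨g, hg⟩ := hconj y (d a₀)
  have hgo : orderOf g = Fintype.card F - 1 := by
    rw [← orderOf_injective ι hinj, hg, ← MulAut.conj_apply,
      ← MulEquiv.coe_toMonoidHom, orderOf_injective (MulAut.conj y).toMonoidHom (MulAut.conj y).injective,
      orderOf_injective ι hinj, orderOf_injective _ d_injective, ha₀o]
  have hgB : g ∈ (B : Subgroup SL₂) := by
    rw [← normalizer_U, Subgroup.mem_normalizer_iff_map_conj_eq]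
    apply Subgroup.map_injective hinj
    rw [Subgroup.map_map, show ι.comp ((MulAut.conj g : MulAut SL₂) : SL₂ →* SL₂) =
      ((MulAut.conj (ι g) : MulAut G) : G →* G).comp ι from MonoidHom.ext fun x => by simp, ← Subgroup.map_map,
      ← hS]
    refine (Subgroup.mem_normalizer_iff_map_conj_eq).1 ?_
    rw [hg]
    exact mul_mem (mul_mem hyS (hdN a₀)) (inv_mem hyS)
  have hgg : g * g ≠ 1 := fun h1 => by
    have h2 : orderOf g ∣ 2 := orderOf_dvd_of_pow_eq_one (by rw [sq]; exact h1)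
    rw [hgo] at h2
    have := Nat.le_of_dvd two_pos h2
    omega
  obtain ⟨c, a, hca⟩ := exists_conj_T hgB hgg
  set y' := (ι (u c))⁻¹ * y with hy'
  have hy'N : y' ∉ N := fun h1 => hyN (by simpa [hy'] using mul_mem (hιN (u c)) h1)
  have hUS : ∀ t : F, ι (u t) ∈ Subgroup.normalizer (S : Set G) := fun t =>
    Subgroup.le_normalizer ⟨u t, u_mem_U t, rfl⟩
  have hy'S : y' ∈ Subgroup.normalizer (S : Set G) := mul_mem (inv_mem (hUS c)) hyS
  have hy'T : ∀ b : Fˣ, ∃ b', y' * ι (d b) * y'⁻¹ = ι (d b') := by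
    intro b
    obtain ⟨j, rfl⟩ := ha₀ b
    refine ⟨a ^ j, ?_⟩
    rw [map_zpow, map_zpow, ← MulAut.conj_apply, map_zpow, MulAut.conj_apply, map_zpow, map_zpow]
    congr 1
    rw [hy', ← hca, map_mul, map_mul, map_inv, hg]
    group
  have hy'C : Commute y' (ι (u 1)) := by
    refine Commute.mul_left ?_ (Subgroup.mem_centralizer_singleton_iff.1 hyC)
    rw [← map_inv, ← u_neg]
    refine (show Commute (u (-c)) (u (1 : F)) from ?_).map ι
    show _ = _
    rw [← u_add, ← u_add, add_comm]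
  -- `y'` is an involution
  have hy'2 : y' * y' ∈ N := by
    have h1 : QuotientGroup.mk' N y' = QuotientGroup.mk' N y := by
      rw [hy', map_mul, show QuotientGroup.mk' N (ι (u c))⁻¹ = 1 from
        (QuotientGroup.eq_one_iff _).2 (inv_mem (hιN _)), one_mul]
    rw [← QuotientGroup.eq_one_iff, ← QuotientGroup.mk'_apply, map_mul, h1, ← map_mul,
      QuotientGroup.mk'_apply, QuotientGroup.eq_one_iff, ← sq]
    exact hy2
  obtain ⟨x, hx⟩ := hNι _ hy'2
  have hxB : x ∈ (B : Subgroup SL₂) := by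
    rw [← normalizer_U, Subgroup.mem_normalizer_iff_map_conj_eq]
    apply Subgroup.map_injective hinj
    rw [Subgroup.map_map, show ι.comp ((MulAut.conj x : MulAut SL₂) : SL₂ →* SL₂) =
      ((MulAut.conj (ι x) : MulAut G) : G →* G).comp ι from MonoidHom.ext fun x => by simp, ← Subgroup.map_map,
      ← hS]
    exact (Subgroup.mem_normalizer_iff_map_conj_eq).1 (hx ▸ mul_mem hy'S hy'S)
  obtain ⟨t, rfl⟩ : ∃ t, x = u t := mem_U.1 (mem_U_of_commute hxB (by
    have h1 : Commute (ι x) (ι (u 1)) := hx ▸ hy'C.mul_left hy'C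
    exact hinj (by rw [map_mul, map_mul]; exact h1.eq)))
  have ha₀1 : a₀ ≠ 1 := by
    intro h1
    rw [h1, orderOf_one] at ha₀o
    omega
  have ht : t = 0 := by
    refine eq_of_u_conj_d ha₀1 ?_
    obtain ⟨b1, hb1⟩ := hy'T a₀
    obtain ⟨b2, hb2⟩ := hy'T b1
    have h1 : ι (u t * d a₀ * (u t)⁻¹) = ι (d b2) := by
      rw [map_mul, map_mul, map_inv, hx, ← hb2, ← hb1]
      group
    exact hinj h1 ▸ d_mem_T b2
  subst ht
  rw [u_zero, map_one] at hx
  have hy'1 : y' ≠ 1 := fun h1 => hy'N (h1 ▸ one_mem N)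
  have hy'o : orderOf y' = 2 := orderOf_eq_prime (by rw [sq]; exact hx.symm) hy'1
  -- so it inverts the torus
  have hinv : ∀ b : Fˣ, y' * ι (d b) * y'⁻¹ = ι (d b⁻¹) := by
    intro b
    obtain ⟨b', hb'⟩ := hy'T b
    have hyinv : y'⁻¹ = y' := inv_eq_of_mul_eq_one_right hx.symm
    have hb'' : y' * ι (d b') * y'⁻¹ = ι (d b) := by
      rw [← hb', hyinv]
      calc y' * (y' * ι (d b) * y') * y' = (y' * y') * ι (d b) * (y' * y') := by group
        _ = _ := by rw [← hx, one_mul, mul_one]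
    have hfix : Commute y' (ι (d (b * b'))) := by
      show _ = _
      rw [← mul_inv_eq_iff_eq_mul, map_mul, map_mul,
        show y' * (ι (d b) * ι (d b')) * y'⁻¹ = (y' * ι (d b) * y'⁻¹) * (y' * ι (d b') * y'⁻¹) by
          group, hb', hb'', ← map_mul, ← map_mul, ← map_mul, ← map_mul, mul_comm]
    obtain ⟨j, hj⟩ := hcit.orderOf_of_commute (k := 1) (by rw [hy'o, pow_one]) hy'1 hfix
    rw [orderOf_injective ι hinj, orderOf_injective _ d_injective] at hj
    have h1 : orderOf (b * b') ∣ Fintype.card F - 1 := by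
      rw [← Fintype.card_units, ← Nat.card_eq_fintype_card]
      exact orderOf_dvd_natCard _
    rw [hj] at h1
    have h2 : j = 0 := by
      by_contra hne
      exact Nat.not_even_iff_odd.2 hodd (even_iff_two_dvd.2 ((dvd_pow_self 2 hne).trans h1))
    rw [h2, pow_zero, orderOf_eq_one_iff] at hj
    rw [hb', show b' = b⁻¹ from eq_inv_of_mul_eq_one_right hj]
  -- and is inversion on `U`
  have hf : ∀ x : F, ∃ x', y' * ι (u x) * y'⁻¹ = ι (u x') := hSmem hy'S
  choose f hf using hf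
  have hadd : ∀ p q, f (p + q) = f p + f q := fun p q => by
    apply u_injective
    apply hinj
    rw [← hf, u_add, map_mul, u_add, map_mul, ← hf p, ← hf q]
    group
  have hsq : ∀ x : F, x ≠ 0 → f x = x⁻¹ := by
    intro x hx0
    obtain ⟨b, hb⟩ := (Finite.injective_iff_bijective.1 (frobenius_inj F 2)).2 x
    rw [frobenius_def] at hb
    have hb0 : b ≠ 0 := fun h0 => hx0 (by rw [← hb, h0]; simp)
    set a := Units.mk0 b hb0
    apply u_injective
    apply hinj
    have h1 : y' * ι (u 1) * y'⁻¹ = ι (u 1) := by rw [hy'C.eq, mul_inv_cancel_right]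
    have hxe : x = (a : F) ^ 2 * 1 := by rw [mul_one, Units.val_mk0, hb]
    rw [← hf, hxe, ← d_conj_u, map_mul, map_mul, map_inv,
      show y' * (ι (d a) * ι (u 1) * (ι (d a))⁻¹) * y'⁻¹ =
        (y' * ι (d a) * y'⁻¹) * (y' * ι (u 1) * y'⁻¹) * (y' * ι (d a) * y'⁻¹)⁻¹ by group,
      h1, hinv, ← map_inv, ← map_mul, ← map_mul, d_conj_u, mul_one, mul_one,
      Units.val_inv_eq_inv_val, inv_pow]
  have hone : f 1 = 1 := by rw [hsq 1 one_ne_zero, inv_one]
  let s : Finset F := {x | x ≠ 0 ∧ x ≠ 1}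
  have hroot : ∀ x ∈ s, x ^ 2 + x + 1 = 0 := by
    intro x hx'
    simp only [s, Finset.mem_filter, Finset.mem_univ, true_and] at hx'
    have hx1 : x + 1 ≠ 0 := fun h1 => hx'.2 (CharTwo.add_eq_zero.1 h1)
    have h1 := hadd x 1
    rw [hsq x hx'.1, hsq _ hx1, hone] at h1
    have h2 := congrArg (fun z => z * (x * (x + 1))) h1
    rw [add_mul, show (x + 1)⁻¹ * (x * (x + 1)) = x by
        rw [mul_comm x, ← mul_assoc, inv_mul_cancel₀ hx1, one_mul],
      show x⁻¹ * (x * (x + 1)) = x + 1 by rw [← mul_assoc, inv_mul_cancel₀ hx'.1, one_mul]] at h2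
    linear_combination -h2
  have hs : 3 ≤ s.card := by
    have h1 : Finset.univ \ s ⊆ ({0, 1} : Finset F) := fun x hx' => by
      simp only [s, Finset.mem_sdiff, Finset.mem_filter, Finset.mem_univ, true_and, not_and_or,
        not_ne_iff] at hx'
      simpa using hx'
    have h2 := (Finset.card_le_card h1).trans Finset.card_le_two
    rw [Finset.card_sdiff_of_subset (Finset.subset_univ _), Finset.card_univ] at h2
    omega
  obtain ⟨p, hp, q, hq, r, hr, hpq, hpr, hqr⟩ := Finset.two_lt_card.1 (show 2 < s.card by omega)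
  have e1 := hroot p hp
  have e2 := hroot q hq
  have e3 := hroot r hr
  have hA : p + q + 1 = 0 :=
    (mul_eq_zero.1 (show (p - q) * (p + q + 1) = 0 by linear_combination e1 - e2)).resolve_left
      (sub_ne_zero.2 hpq)
  have hB : p + r + 1 = 0 :=
    (mul_eq_zero.1 (show (p - r) * (p + r + 1) = 0 by linear_combination e1 - e3)).resolve_left
      (sub_ne_zero.2 hpr)
  exact hqr (by linear_combination hA - hB)

end CfsgLib.PrimeGraphPSLTwo
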